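/-
Characters induced from a maximal subgroup (Isaacs 11.34) and Berger's theorem.
-/
import Cfsg.Agent.H30.Ramified
import Cfsg.Agent.H30.Cover
import Cfsg.Agent.H30.Gallagher
import Cfsg.Agent.H6.CFCliff
import Cfsg.Agent.H6.Monomial

set_option autoImplicit false

open scoped ComplexConjugate
open Cfsg Cfsg.Agent.H49 Cfsg.Agent.H54

namespace Cfsg.Agent.H30

universe u

section

variable {G : Type*} [Group G] [Fintype G] {H K L N S : Subgroup G} {φ ψ χ θ : G → ℂ}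

omit [Fintype G] in
theorem normal_of_normalIn_top (h : NormalIn N ⊤) : N.Normal :=
  ⟨fun _ hx g => conj_mem_of_norm h.2 (Subgroup.mem_top g) hx⟩

/-- the chief factor above the core of a maximal subgroup -/
theorem exists_chief_core [N.Normal] (hs : Group.IsSolvable (G ⧸ N)) (hN : N ≤ H)
    (hmax : IsCoatom H) : ∃ K, Chief H.normalCore K ⊤ ∧ ⁅K, K⁆ ≤ H.normalCore ∧
      IsProd H K ⊤ ∧ K ⊓ H = H.normalCore := by
  have h1 : H.normalCore < ⊤ := lt_of_le_of_lt H.normalCore_le hmax.1.lt_top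
  obtain ⟨K, -, hK⟩ := exists_chief_above (normalIn_top H.normalCore) (normalIn_top ⊤) h1
  have hab := hK.der_le_of_quotient hs (Subgroup.normal_le_normalCore.2 hN)
  have nK := normal_of_normalIn_top hK.nK
  have h2 : ¬ K ≤ H := fun h => hK.lt.not_ge (Subgroup.normal_le_normalCore.2 h)
  have h3 : H ⊔ K = ⊤ := hmax.2 _ (lt_of_le_of_ne le_sup_left fun e => h2 (e ▸ le_sup_right))
  have h4 : IsProd H K ⊤ := h3 ▸ isProd_sup_of_norm_right (le_top.trans hK.nK.2)
  refine ⟨K, hK, hab, h4, le_antisymm ?_ (le_inf hK.lt.le H.normalCore_le)⟩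
  intro x hx g
  obtain ⟨a, ha, b, hb, rfl⟩ := h4.2.2 g (Subgroup.mem_top g)
  have h5 : b * x * b⁻¹ * x⁻¹ ∈ H :=
    H.normalCore_le (hab (Subgroup.commutator_mem_commutator hb hx.1))
  have : a * b * x * (a * b)⁻¹ = a * (b * x * b⁻¹ * x⁻¹ * x) * a⁻¹ := by group
  rw [this]
  exact H.mul_mem (H.mul_mem ha (H.mul_mem h5 hx.2)) (H.inv_mem ha)

omit [Fintype G] in
theorem mem_core_of_forall (h : IsProd H K ⊤) {x : G} (hx : ∀ k ∈ K, k * x * k⁻¹ ∈ H) :
    x ∈ H.normalCore := by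
  intro g
  obtain ⟨a, ha, b, hb, rfl⟩ := h.2.2 g (Subgroup.mem_top g)
  have : a * b * x * (a * b)⁻¹ = a * (b * x * b⁻¹) * a⁻¹ := by group
  rw [this]
  exact H.mul_mem (H.mul_mem ha (hx b hb)) (H.inv_mem ha)

omit [Fintype G] in
/-- a normal section `S / L` of prime power order centralizes a chief factor `K / L` inside it -/
theorem Chief.comm_le_of_pow [Finite G] (h : Chief L K H) (hS : NormalIn S H) (hKS : K ≤ S)
    {p n : ℕ} (hp : p.Prime) (hn : L.relIndex S = p ^ n) : ⁅K, S⁆ ≤ L := by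
  have hSL : S ≤ 𝒩(L) := hS.1.trans h.nL.2
  have hKL : K ≤ 𝒩(L) := hKS.trans hSL
  have : Fact p.Prime := ⟨hp⟩
  have h1 : Group.IsNilpotent (quo S L) :=
    (IsPGroup.of_card (p := p) (n := n) (by rw [card_quo hSL, hn])).isNilpotent
  have h2 := H49.commutator_lt_of_nilpotent h1 (quo_mono L hKS) (quo_norm L (hS.1.trans h.nK.2))
    (fun e => h.lt.not_ge ((quo_eq_bot_iff hKL).1 e))
  rw [← quo_commutator hKL hSL] at h2
  have h3 : ⁅K, S⁆ ≤ K := commutator_le_left_of_norm (hS.1.trans h.nK.2)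
  have hn : NormalIn (⁅K, S⁆ ⊔ L) H :=
    NormalIn.sup ⟨h3.trans h.nK.1, norm_commutator h.nK.2 hS.2⟩ h.nL
  rcases h.min _ hn le_sup_right (sup_le h3 h.lt.le) with e | e
  · exact e ▸ le_sup_left
  · exact absurd ((quo_le_quo_iff' hKL (h3.trans hKL)).2 e.ge) h2.not_ge

/-- Isaacs (11.34) -/
theorem berger_core [N.Normal] (hs : Group.IsSolvable (G ⧸ N)) (hN : N ≤ H) (hmax : IsCoatom H)
    (hθ : θ ∈ irr H) (hr : res N θ ∈ irr N) (hi : ind ⊤ H θ ∈ irr ⊤) :
    ∃ M : Subgroup G, M.Normal ∧ N ≤ M ∧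
      ¬ ∃ φ ∈ irr M, ∃ e : ℕ, res M (ind ⊤ H θ) = (e : ℂ) • φ := by
  by_contra hc
  push Not at hc
  obtain ⟨K, hK, hab, hp, hKH⟩ := exists_chief_core hs hN hmax
  set L := H.normalCore with hL
  set χ := ind ⊤ H θ with hχ
  have hNL : N ≤ L := Subgroup.normal_le_normalCore.2 hN
  have hLH : L ≤ H := H.normalCore_le
  have nK := normal_of_normalIn_top hK.nK
  have hχ1 := H52.irr_one_ne_zero hi
  have hirr : ∀ Q, N ≤ Q → Q ≤ H → res Q θ ∈ irr Q := fun Q h1 h2 =>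
    H52.irr_of_res_irr h1 (H52.char_res h2 (H52.irr_char hθ)) (by rwa [H52.res_res h1])
  have hφ := hirr L hNL hLH
  -- restriction to `K`
  obtain ⟨σ, hσ, b, hb⟩ := hc K nK (hNL.trans hK.lt.le)
  have hb0 := ne_zero_of_res_eq hχ1 hb
  have e1 : ind K L (res L θ) = (b : ℂ) • σ := by
    rw [← hb, hχ, res_ind_isProd hp (H52.irr_CF hθ), hKH, H52.ind_res]
  have hd : dot L σ (res L θ) = b := by
    rw [← H52.dot_ind_right hK.lt.le _ (H52.irr_CF hσ), e1, H52.dot_natCast_smul_right,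
      H52.dot_irr_self hσ, mul_one]
  -- `res L θ` is invariant
  obtain ⟨φ, hφ', a, ha⟩ := hc L inferInstance hNL
  have ha0 := ne_zero_of_res_eq hχ1 ha
  have hφe : φ = res L θ := by
    refine H52.eq_of_dot_irr_ne_zero hφ' hφ fun h0 => hb0 ?_
    have : dot L (res L χ) (res L θ) = 0 := by rw [ha, H52.dot_smul_left, h0, mul_zero]
    rw [← H52.res_res hK.lt.le, hb, map_smul, H52.dot_smul_left, H52.dot_res_left, hd] at this
    simpa using this
  subst hφe
  have hinv : ∀ g ∈ K, cfConjg g (res L θ) = res L θ := fun g _ =>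
    invariant_of_res_eq hK.nL.2 (H52.irr_CF hi) ha0 ha (Subgroup.mem_top g)
  obtain ⟨e, he⟩ := exists_res_eq_of_invariant hK.normal hσ hφ (by rw [hd]; exact hb0) hinv
  have hsq := sq_eq_of_ind_eq hK.lt.le hσ hφ he e1
  have hbe : (b : ℂ) = e := by rw [← hd, dot_of_res_eq hφ he]
  obtain ⟨p, n, hpp, hn0, hn⟩ := hK.exists_prime_pow hab
  have he1 : e ≠ 1 := by
    rintro rfl
    rw [hn] at hsq
    exact absurd hsq.symm (Nat.one_lt_pow hn0.ne' hpp.one_lt).ne'
  have hKt : K ≠ ⊤ := by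
    rintro rfl
    rw [H52.res_top] at hb
    have h1 := H52.nrm_irr hi
    rw [hb, H52.nrm_smul, H52.nrm_irr hσ, hbe] at h1
    have : (e : ℝ) ^ 2 = 1 := by simpa using h1
    have : e ^ 2 = 1 := by exact_mod_cast this
    exact he1 (by simpa using this)
  -- the next chief factor
  obtain ⟨S, -, hS⟩ := exists_chief_above hK.nK (normalIn_top ⊤) hKt.lt_top
  have nS := normal_of_normalIn_top hS.nK
  obtain ⟨q, r, hq, hr0, hqr⟩ :=
    hS.exists_prime_pow (hS.der_le_of_quotient hs (hNL.trans hK.lt.le))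
  have hpS : IsProd H S ⊤ := ⟨le_top, le_top, fun g hg => by
    obtain ⟨a, ha, b, hb, e⟩ := hp.2.2 g hg
    exact ⟨a, ha, b, hS.lt.le hb, e⟩⟩
  have hpQ : IsProd (H ⊓ S) K S := hp.restrict_right hS.lt.le le_top
  have hLS : L ≤ S := hK.lt.le.trans hS.lt.le
  have hqp : q ≠ p := by
    rintro rfl
    have h1 : ⁅K, S⁆ ≤ L := hK.comm_le_of_pow hS.nK hS.lt.le hq (n := n + r) (by
      rw [← Subgroup.relIndex_mul_relIndex L K S hK.lt.le hS.lt.le, hn, hqr, pow_add])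
    refine hS.lt.not_ge fun s hs' => ?_
    obtain ⟨x, hx, k, hk, rfl⟩ := hpQ.2.2 s hs'
    refine K.mul_mem (hK.lt.le (mem_core_of_forall hp fun k hk => ?_)) hk
    have : k * x * k⁻¹ = k * x * k⁻¹ * x⁻¹ * x := by group
    rw [this]
    exact H.mul_mem (hLH (h1 (Subgroup.commutator_mem_commutator hk hx.2))) hx.1
  obtain ⟨ρ, hρ, c, hcρ⟩ := hc S nS (hNL.trans hLS)
  have hc0 := ne_zero_of_res_eq hχ1 hcρ
  have hQ := hirr (S ⊓ H) (le_inf (hNL.trans hLS) hN) inf_le_right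
  have e2 : ind S (S ⊓ H) (res (S ⊓ H) θ) = (c : ℂ) • ρ := by
    rw [← hcρ, hχ, res_ind_isProd hpS (H52.irr_CF hθ), H52.ind_res]
  have e3 : res K ρ = ((b : ℂ) / c) • σ := by
    have : (c : ℂ) • res K ρ = (b : ℂ) • σ := by
      rw [← map_smul, ← hcρ, H52.res_res hS.lt.le, hb]
    rw [div_eq_inv_mul, mul_smul, ← this, smul_smul, inv_mul_cancel₀ hc0, one_smul]
  obtain ⟨d, hd1, hd2⟩ := H6A.exists_degree_eq_mul hS.normal hρ hσ (by
    rw [dot_of_res_eq hσ e3]; exact div_ne_zero hb0 hc0)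
  have e4 : (b : ℂ) / c = d :=
    mul_right_cancel₀ (H52.irr_one_ne_zero hσ) (by rw [← hd2, one_of_res_eq e3])
  have e5 : e = d * c := by
    have : (e : ℂ) = d * c := by rw [← hbe, ← e4, div_mul_cancel₀ _ hc0]
    exact_mod_cast this
  have hd3 : d = 1 := by
    have h1 : d ∣ p ^ n := by rw [← hn, ← hsq, e5]; exact ⟨d * c * c, by ring⟩
    rw [hqr] at hd1
    exact Nat.eq_one_of_dvd_coprimes
      (Nat.Coprime.pow _ _ ((Nat.coprime_primes hpp hq).2 hqp.symm)) h1 hd1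
  subst hd3
  rw [one_mul] at e5
  subst e5
  have hidx : (S ⊓ H).relIndex S = L.relIndex K := by
    rw [Subgroup.inf_relIndex_left, hpS.symm.relIndex_eq, ← hp.symm.relIndex_eq, ← hKH,
      Subgroup.inf_relIndex_left]
  have hv : ∀ x ∈ S, x ∉ S ⊓ H → ρ x = 0 := by
    refine vanish_of_nrm inf_le_left ?_
    have h1 := H52.norm_dot_sq_le (S ⊓ H) ρ (res (S ⊓ H) θ)
    rw [H52.nrm_irr hQ, mul_one, ← H52.dot_ind_right inf_le_left _ (H52.irr_CF hρ), e2,
      H52.dot_natCast_smul_right, H52.dot_irr_self hρ, mul_one] at h1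
    rw [H52.nrm_irr hρ, mul_one, hidx, ← hsq]
    simpa using h1
  have hv2 : ∀ x ∈ S, x ∉ L → ρ x = 0 := by
    intro x hx hxL
    obtain ⟨k, hk, hk'⟩ : ∃ k ∈ K, k * x * k⁻¹ ∉ H := by
      by_contra h
      push Not at h
      exact hxL (mem_core_of_forall hp h)
    rw [← H52.CF_conj (H52.irr_CF hρ) (hS.lt.le hk) x]
    exact hv _ (nS.conj_mem x hx k) fun h => hk' h.2
  have e6 : res L ρ = (e : ℂ) • res L θ := by
    rw [← H52.res_res hK.lt.le, e3, e4, Nat.cast_one, one_smul, he]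
  have e7 := sq_eq_of_vanish hLS hρ hφ e6 hv2
  rw [← Subgroup.relIndex_mul_relIndex L K S hK.lt.le hS.lt.le, ← hsq, hqr] at e7
  have h8 : 0 < e ^ 2 := by rw [hsq]; exact relIndex_pos _ _
  have h9 := Nat.one_lt_pow hr0.ne' hq.one_lt
  nlinarith

theorem dot_ind_ne_zero (hH : H ≤ S) (hL : L ≤ H) (hθ : θ ∈ irr H) (hφ : IsChar L φ)
    (h : dot L θ φ ≠ 0) : dot L (ind S H θ) φ ≠ 0 := by
  have h1 := H52.char_res hH (H52.ind_char hH (H52.irr_char hθ))
  have h2 := H52.char_sub_constt h1 hθ (by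
    rw [H52.dot_res_left]; exact H52.dot_ind_self_ne_zero hH (H52.irr_one_ne_zero hθ))
  intro e
  refine h ?_
  rw [← H52.dot_res_left]
  refine H52.dot_char_add_eq_zero (H52.char_res hL (H52.irr_char hθ)) (H52.char_res hL h2) hφ ?_
  rwa [← map_add, add_sub_cancel, H52.res_res hL, H52.dot_res_left]

/-- a factor of an irreducible product is irreducible -/
theorem irr_of_mul_irr (hφ : IsChar L φ) (hψ : IsChar L ψ) (h : φ * ψ ∈ irr L) : ψ ∈ irr L := by
  have h0 : ψ ≠ 0 := by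
    rintro rfl
    exact H52.irr_ne_zero h (mul_zero φ)
  obtain ⟨ξ, hξ, hd⟩ := H52.exists_irr_dot_ne_zero (H52.char_CF hψ) h0
  have h1 := H52.char_sub_constt hψ hξ hd
  have h2 : φ * ξ + φ * (ψ - ξ) ∈ irr L := by rwa [← mul_add, add_sub_cancel]
  have h3 : φ 1 ≠ 0 := fun e => H52.irr_one_ne_zero h (by simp [e])
  rcases H52.irr_add_cases (H52.char_mul hφ (H52.irr_char hξ)) (H52.char_mul hφ h1) h2 with e | e
  · exact absurd (congrFun e 1) (mul_ne_zero h3 (H52.irr_one_ne_zero hξ))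
  · have : (ψ - ξ) 1 = 0 := (mul_eq_zero.1 (congrFun e 1)).resolve_left h3
    rw [sub_eq_zero.1 (H52.char_eq_zero_of_one h1 this)]
    exact hξ

end

theorem Cover.exists_lift {G : Type*} [Group G] {N : Subgroup G} [hN : N.Normal] {ϑ : N → ℂ}
    {Γ : Type*} [Group Γ] (C : Cover N ϑ Γ) {E : Type*} [Group E] (a : E →* G) (b : E →* Γ)
    (h : ∀ x, (C.π (b x))⁻¹ * a x ∈ N) : ∃ j : E →* Γ, (∀ x, C.π (j x) = a x) ∧
      (∀ x, ∃ n, j x = b x * C.ν n) ∧ ∀ x (z : C.π.ker) (m : N), b x = z * C.ν m →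
        ∀ hx : a x ∈ N, j x = z * C.ν ⟨a x, hx⟩ := by
  obtain ⟨n, hn⟩ : ∃ n : E → N, ∀ x, (n x : G) = (C.π (b x))⁻¹ * a x :=
    ⟨fun x => ⟨_, h x⟩, fun _ => rfl⟩
  refine ⟨MonoidHom.mk' (fun x => b x * C.ν (n x)) fun x y => ?_, fun x => ?_,
    fun x => ⟨_, rfl⟩, fun x z m e hx => ?_⟩
  · have e := C.ν_conj (b y)⁻¹ (n x)
    rw [inv_inv] at e
    calc b (x * y) * C.ν (n (x * y))
        = b x * b y * (C.ν ⟨C.π (b y)⁻¹ * n x * (C.π (b y)⁻¹)⁻¹,
            hN.conj_mem _ (n x).2 _⟩ * C.ν (n y)) := by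
          rw [map_mul, ← map_mul C.ν]
          congr 2
          apply Subtype.ext
          simp [mul_assoc, hn]
      _ = _ := by rw [← e]; group
  · simp [C.π_ν, hn]
  · change b x * C.ν (n x) = _
    have hz : C.π z = 1 := z.2
    have : C.π (b x) = m := by rw [e, map_mul, hz, one_mul, C.π_ν]
    rw [e, mul_assoc, ← map_mul]
    congr 2
    apply Subtype.ext
    simp [this, hn]

theorem berger_aux (n : ℕ) : ∀ (G : Type u) [Group G] [Fintype G], Group.IsSolvable G →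
    ∀ χ ∈ irr (⊤ : Subgroup G),
    (∀ M : Subgroup G, M.Normal → ∃ φ ∈ irr M, ∃ e : ℕ, res M χ = (e : ℂ) • φ) →
    ∀ N : Subgroup G, N.Normal → N.index ≤ n → ∀ U, N ≤ U → U ≠ ⊤ → ∀ ψ, IsChar U ψ →
      ind ⊤ U ψ ≠ χ := by
  induction n using Nat.strong_induction_on with
  | _ n ih =>
  intro G _ _ hs χ hχ hq N hN hn U hNU hU ψ hψ hc
  classical
  obtain ⟨H, hmax, hUH⟩ := (eq_top_or_exists_le_coatom U).resolve_left hU
  set θ := ind H U ψ with hθd
  have hχθ : ind ⊤ H θ = χ := by rw [hθd, H52.ind_ind hUH le_top, hc]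
  have hθ : θ ∈ irr H := H52.irr_of_ind_irr le_top (H52.ind_char hUH hψ) (hχθ ▸ hχ)
  clear_value θ
  have hsq : Group.IsSolvable (G ⧸ N) := inferInstance
  obtain ⟨K, hK, -, hp, hKH⟩ := exists_chief_core hsq (hNU.trans hUH) hmax
  set L := H.normalCore with hL
  have hNL : N ≤ L := Subgroup.normal_le_normalCore.2 (hNU.trans hUH)
  have hLH : L ≤ H := H.normalCore_le
  have nK := normal_of_normalIn_top hK.nK
  have nL : L.Normal := inferInstance
  have hχ1 := H52.irr_one_ne_zero hχ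
  obtain ⟨φ, hφ, a, ha⟩ := hq L nL
  have ha0 := ne_zero_of_res_eq hχ1 ha
  have hinv : ∀ g, cfConjg g φ = φ := fun g =>
    invariant_of_res_eq hK.nL.2 (H52.irr_CF hχ) ha0 ha (Subgroup.mem_top g)
  have hinv' : ∀ g x, φ (g * x * g⁻¹) = φ x := fun g x => congrFun (hinv g) x
  have hd : dot L θ φ ≠ 0 := by
    obtain ⟨ξ, hξ, h1⟩ := H52.exists_irr_under hLH (H52.irr_CF hθ) (H52.irr_one_ne_zero hθ)
    have h2 := dot_ind_ne_zero le_top hLH hθ (H52.irr_char hξ) h1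
    rw [hχθ, ← H52.dot_res_left, ha, H52.dot_smul_left] at h2
    rwa [H52.eq_of_dot_irr_ne_zero hφ hξ (right_ne_zero_of_mul h2)]
  obtain ⟨c, hcθ⟩ := exists_res_eq_of_invariant ⟨hLH, le_top.trans hK.nL.2⟩ hθ hφ hd
    fun g _ => hinv g
  have hc0 := ne_zero_of_res_eq (H52.irr_one_ne_zero hθ) hcθ
  -- the cover of `(H, L, φ)`
  let L' := L.subgroupOf H
  have : Fintype L' := Fintype.ofFinite _
  have hφ' : IsIrrCharacter L' (H6A.rst2 H L φ) := H6A.rst2_irr hLH hφ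
  obtain ⟨Γ, _, _, ⟨C⟩⟩ := exists_cover L' hφ' fun g x => hinv' g x
  have : Fintype Γ := Fintype.ofFinite _
  have : Fintype C.ν.range := Fintype.ofFinite _
  have hsΓ : Group.IsSolvable Γ := by
    have : Group.IsSolvable C.π.ker := Group.isSolvable_of_comm fun x y =>
      Subtype.ext (Subgroup.mem_center_iff.1 (C.ker_le y.2) x)
    exact Group.isSolvable_of_ker_le_range C.π.ker.subtype C.π (by simp)
  have hφ2 := H5.isIrrCharacter_comp_equiv hφ' C.νEquiv.symm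
  obtain ⟨β, hβ, hβ1, hβ2⟩ := exists_eq_mul_of_over C.ν.range hφ2
    (H5.isCharacter_of_isIrr C.θ_irr)
    C.θ_coe_range (H5.isIrrCharacter_comp (H52.irr_rst hθ) C.π C.π_surj) (by
      have : (fun x : C.ν.range => H52.rst H θ (C.π x)) =
          (c : ℂ) • fun x => H6A.rst2 H L φ (C.νEquiv.symm x) := by
        ext x
        have := congrFun hcθ ((C.νEquiv.symm x : H) : G)
        rw [res_apply_of_mem (K := L) (x := ((C.νEquiv.symm x : H) : G)) _
          (C.νEquiv.symm x).2] at this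
        rw [C.π_coe_range]
        exact this
      rw [this, H5.classInner_smul_left, H5.classInner_irr_self hφ2, mul_one]
      exact hc0)
  have hβ3 : ∀ γ m, β (γ * C.ν m) = β γ := fun γ m =>
    H52.cfker_mul_right (H52.irr_CF (H52.mem_irr_top.2 hβ))
      ((H52.mem_cfker_irr (H52.mem_irr_top.2 hβ)).2 (hβ1 _ ⟨m, rfl⟩)) γ
  -- the fibre product
  let D : Subgroup (G × Γ) := MonoidHom.eqLocus
    ((QuotientGroup.mk' K).comp (H.subtype.comp (C.π.comp (MonoidHom.snd G Γ))))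
    ((QuotientGroup.mk' K).comp (MonoidHom.fst G Γ))
  have hD : ∀ x : G × Γ, x ∈ D ↔ (C.π x.2 : G)⁻¹ * x.1 ∈ K := fun x => QuotientGroup.eq
  have : Fintype D := Fintype.ofFinite _
  let p1 : D →* G := (MonoidHom.fst G Γ).comp D.subtype
  let p2 : D →* Γ := (MonoidHom.snd G Γ).comp D.subtype
  have hp12 : ∀ x : D, (C.π (p2 x) : G)⁻¹ * p1 x ∈ K := fun x => (hD x).1 x.2
  have hp1 : Function.Surjective p1 := by
    intro g
    obtain ⟨a, ha, b, hb, rfl⟩ := hp.2.2 g (Subgroup.mem_top g)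
    obtain ⟨γ, hγ⟩ := C.π_surj ⟨a, ha⟩
    exact ⟨⟨(a * b, γ), (hD _).2 (by simpa [hγ] using hb)⟩, rfl⟩
  let HD := H.comap p1
  let LD := L.comap p1
  have hLD : LD ≤ HD := Subgroup.comap_mono hLH
  have nLD : LD.Normal := inferInstance
  obtain ⟨j, hj1, hj2, hj3⟩ := C.exists_lift
    ((p1.comp HD.subtype).codRestrict H fun x => x.2) (p2.comp HD.subtype) fun x => by
      change (C.π (p2 x) : G)⁻¹ * p1 x ∈ L
      exact hKH.le ⟨hp12 x, H.mul_mem (H.inv_mem (C.π (p2 x)).2) x.2⟩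
  let Θ : D → ℂ := extendByZero HD fun x => C.θ (j x)
  have hΘc : IsChar HD Θ :=
    H52.extend_char (H5.isCharacter_comp (H5.isCharacter_of_isIrr C.θ_irr) j)
  have hΘL : res LD Θ ∈ irr LD := by
    rw [res_extend_irr_iff hLD]
    let f0 : L' →* D := ((H.subtype.comp L'.subtype).prod C.ν).codRestrict D fun x =>
      (hD _).2 (by simp [C.π_ν])
    let f : L' →* LD := f0.codRestrict LD fun x => x.2
    refine isIrr_of_comp (H5.isCharacter_comp (H5.isCharacter_of_isIrr C.θ_irr)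
      (j.comp (Subgroup.inclusion hLD))) f ?_
    convert hφ' using 2 with x
    change C.θ (j ⟨f x, hLD (f x).2⟩) = _
    rw [hj3 ⟨f x, hLD (f x).2⟩ 1 x (one_mul _).symm x.2, OneMemClass.coe_one, one_mul]
    exact C.θ_ν x
  have hΘ : Θ ∈ irr HD := H52.irr_of_res_irr hLD hΘc hΘL
  have hΘv : ∀ x : D, x ∈ LD → ∀ (z : C.π.ker) (m : L'), p2 x = z * C.ν m →
      Θ x = C.lam z * φ (p1 x) := by
    intro x hx z m e
    change extendByZero HD _ ((⟨x, hLD hx⟩ : HD) : D) = _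
    rw [H6.extendByZero_coe, hj3 ⟨x, hLD hx⟩ z m e hx, C.θ_mul, C.θ_ν]
    rfl
  have hΘinv : ∀ g : D, cfConjg g (res LD Θ) = res LD Θ := by
    intro g
    ext x
    rw [cfConjg_apply]
    by_cases hx : x ∈ LD
    · have hx' := nLD.conj_mem x hx g
      rw [res_apply_of_mem _ hx, res_apply_of_mem _ hx']
      obtain ⟨z, m, e⟩ := C.mem_comap_iff.1 (show C.π (p2 x) ∈ L' by
        change (C.π (p2 x) : G) ∈ L
        refine hKH.le ⟨?_, (C.π (p2 x)).2⟩
        have := K.mul_mem (hp12 x) (K.inv_mem (hK.lt.le hx))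
        simpa using this)
      rw [hΘv x hx z m e, hΘv _ hx' z _ (by
        rw [map_mul, map_mul, map_inv, e, ← C.ν_conj (p2 g) m, ← mul_assoc, ← mul_assoc,
          ← mul_assoc, Subgroup.mem_center_iff.1 (C.ker_le z.2) (p2 g)]),
        map_mul, map_mul, map_inv, hinv']
    · rw [res_apply_of_not_mem _ hx, res_apply_of_not_mem _ fun h => hx (by
        simpa [mul_assoc] using nLD.conj_mem _ h g⁻¹)]
  let β' : D → ℂ := fun x => β (p2 x)
  have hβ' : IsChar ⊤ β' :=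
    H52.isChar_top.2 (H5.isCharacter_comp (H5.isCharacter_of_isIrr hβ) p2)
  let χ' : D → ℂ := fun x => χ (p1 x)
  have hχ' : χ' ∈ irr ⊤ :=
    H52.mem_irr_top.2 (H5.isIrrCharacter_comp (H52.mem_irr_top.1 hχ) p1 hp1)
  have key : β' * ind ⊤ HD Θ = χ' := by
    rw [← H52.ind_res_mul le_top _ (H52.char_CF hβ'), H52.ind_top]
    have : H52.rst HD (res HD β' * Θ) = fun x : HD => H52.rst H θ ⟨p1 x, x.2⟩ := by
      ext x
      change res HD β' x * extendByZero HD _ (x : D) = _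
      rw [res_apply_of_mem _ x.2, H6.extendByZero_coe]
      have e1 := congrFun hβ2 (j x)
      obtain ⟨m, e2⟩ := hj2 x
      rw [hj1] at e1
      refine Eq.trans ?_ e1.symm
      rw [Pi.mul_apply, e2, hβ3]
      rfl
    rw [this, H6.indFun_comap_surjective p1 hp1 H, ← H52.ind_top, hχθ]
  have hΞ : ind ⊤ HD Θ ∈ irr ⊤ := irr_of_mul_irr hβ' (H52.ind_char le_top hΘc) (key ▸ hχ')
  have hsD : Group.IsSolvable D := inferInstance
  obtain ⟨M, nM, hLM, hM⟩ := berger_core (N := LD) inferInstance hLD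
    (Subgroup.isCoatom_comap_of_surjective hp1 hmax) hΘ hΘL hΞ
  have hlt : LD < M := lt_of_le_of_ne hLM (by
    rintro rfl
    refine hM ⟨_, hΘL, exists_res_eq_of_invariant (normalIn_top _) hΞ hΘL ?_ fun g _ => hΘinv g⟩
    refine dot_ind_ne_zero le_top hLD hΘ (H52.irr_char hΘL) ?_
    rw [← H52.dot_res_left, H52.dot_irr_self hΘL]
    exact one_ne_zero)
  obtain ⟨ω, hω, hωd⟩ := H52.exists_irr_under (le_top (a := M)) (H52.irr_CF hΞ)
    (H52.irr_one_ne_zero hΞ)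
  obtain ⟨ξ, hξ, -, e3, -⟩ := H6A.exists_ind_inertia_eq (normalIn_top M) hω hΞ hωd
  refine ih M.index ?_ D hsD χ' hχ' ?_ M nM le_rfl (inertia ⊤ ω)
    (H52.le_inertia le_top (H52.irr_CF hω)) ?_ (res _ β' * ξ)
    (H52.char_mul (H52.char_res le_top hβ') (H52.irr_char hξ)) ?_
  · calc M.index < LD.index := Subgroup.index_strictAnti hlt
      _ = L.index := Subgroup.index_comap_of_surjective _ hp1
      _ ≤ N.index := Subgroup.index_antitone hNL
      _ ≤ n := hn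
  · intro M' nM'
    obtain ⟨φ0, h0, e, he⟩ := hq (M'.map p1) (nM'.map p1 hp1)
    refine ⟨extendByZero M' fun x => φ0 (p1 x), H52.extend_irr
      (H5.isIrrCharacter_comp (H52.irr_rst h0) (p1.subgroupMap M') (p1.subgroupMap_surjective M')),
      e, res_eq_smul_extend_iff.2 ?_⟩
    ext x
    have := congrFun he (p1 x)
    rwa [res_apply_of_mem _ (Subgroup.mem_map_of_mem p1 x.2)] at this
  · intro e
    exact hM ⟨ω, hω, exists_res_eq_of_invariant (normalIn_top M) hΞ hω hωd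
      fun g hg => (e.ge hg).2⟩
  · rw [H52.ind_res_mul le_top _ (H52.char_CF hβ'), e3, key]

end Cfsg.Agent.H30
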